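import Cfsg.Agent.H281.TwInt
import Cfsg.Agent.J2.ExtQuot

set_option autoImplicit false
set_option linter.unusedSectionVars false

/-! # The extension of an extraspecial 2-group by a group of isometries -/

namespace Cfsg.Agent.H281.Tw

variable {U : Type*} [AddCommGroup U] [Module (ZMod 2) U]
variable (β : LinearMap.BilinForm (ZMod 2) U) [Fintype U] [DecidableEq U]
variable {K : Type*} [Group K] (ρ : Representation (ZMod 2) K U)

theorem sg_smul_smul (s : ZMod 2) (h : U → ZMod 3) : sg s • sg s • h = h := by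
  rw [smul_smul, sg_mul_self, one_smul]

/-- pairs `(k, T)`: `T` commutes with the right multiplications and maps `L v` to `± L (k v)` -/
def GG : Subgroup (K × ((U → ZMod 3) ≃ₗ[ZMod 3] (U → ZMod 3))) where
  carrier := {p | (∀ v h, p.2 (R β v h) = R β v (p.2 h)) ∧
    ∀ v, ∃ s : ZMod 2, ∀ h, p.2 (L β v h) = sg s • L β (ρ p.1 v) (p.2 h)}
  mul_mem' := by
    rintro ⟨k, T⟩ ⟨k', T'⟩ ⟨h1, h2⟩ ⟨h1', h2'⟩
    refine ⟨?_, ?_⟩
    · intro v h
      change T (T' (R β v h)) = R β v (T (T' h))
      simp only at h1 h1'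
      rw [h1', h1]
    · intro v
      obtain ⟨s', hs'⟩ := h2' v
      obtain ⟨s, hs⟩ := h2 (ρ k' v)
      refine ⟨s + s', ?_⟩
      intro h
      change T (T' (L β v h)) = _ • L β (ρ (k * k') v) (T (T' h))
      simp only at hs hs'
      rw [hs', map_smul, hs, map_mul, Module.End.mul_apply, smul_smul, ← sg_add, add_comm]
  one_mem' := by
    refine ⟨fun v h => rfl, fun v => ⟨0, fun h => ?_⟩⟩
    simp [sg_zero]
  inv_mem' := by
    rintro ⟨k, T⟩ ⟨h1, h2⟩
    simp only at h1 h2
    refine ⟨?_, ?_⟩
    · intro v h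
      change T.symm (R β v h) = R β v (T.symm h)
      apply T.injective
      rw [h1, LinearEquiv.apply_symm_apply, LinearEquiv.apply_symm_apply]
    · intro v
      obtain ⟨s, hs⟩ := h2 (ρ k⁻¹ v)
      refine ⟨s, ?_⟩
      intro h
      change T.symm (L β v h) = sg s • L β (ρ k⁻¹ v) (T.symm h)
      apply T.injective
      rw [map_smul, hs, LinearEquiv.apply_symm_apply, LinearEquiv.apply_symm_apply, sg_smul_smul]
      congr 1
      have : ρ k (ρ k⁻¹ v) = v := by
        rw [← Module.End.mul_apply, ← map_mul, mul_inv_cancel, map_one]; rfl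
      rw [this]

theorem mem_GG (p : K × ((U → ZMod 3) ≃ₗ[ZMod 3] (U → ZMod 3))) : p ∈ GG β ρ ↔
    (∀ v h, p.2 (R β v h) = R β v (p.2 h)) ∧
    ∀ v, ∃ s : ZMod 2, ∀ h, p.2 (L β v h) = sg s • L β (ρ p.1 v) (p.2 h) := Iff.rfl

/-- the projection to `K` -/
def pr : ↥(GG β ρ) →* K := (MonoidHom.fst K _).comp (GG β ρ).subtype

theorem pr_apply (p : ↥(GG β ρ)) : pr β ρ p = p.1.1 := rfl

theorem pr_surjective (hnd : ∀ u, (∀ v, β u v + β v u = 0) → u = 0)
    (hq : ∀ (k : K) (u : U), β (ρ k u) (ρ k u) = β u u) : Function.Surjective (pr β ρ) := by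
  intro k
  obtain ⟨T, f, h1, h2⟩ := exists_intertwiner β hnd (ρ k) (hq k)
  exact ⟨⟨(k, T), h1, fun v => ⟨f v, h2 v⟩⟩, rfl⟩

/-- the elements of the kernel -/
theorem exists_of_ker (hnd : ∀ u, (∀ v, β u v + β v u = 0) → u = 0)
    (p : ↥(GG β ρ)) (hp : pr β ρ p = 1) : ∃ (v : U) (c : ZMod 2), ∀ h, p.1.2 h = sg c • L β v h := by
  obtain ⟨⟨k, T⟩, h1, h2⟩ := p
  rw [pr_apply] at hp
  simp only at hp h1 h2 ⊢
  subst hp
  choose s hs using h2
  have hs1 : ∀ v h, T (L β v h) = sg (s v) • L β v (T h) := by
    intro v h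
    rw [hs v h, map_one]; rfl
  -- s is additive
  have hadd : ∀ u v, s (u + v) = s u + s v := by
    intro u v
    have e1 : T (L β u (L β v (dl 0))) = sg (s u + s v) • L β u (L β v (T (dl 0))) := by
      rw [hs1, hs1, map_smul, smul_smul, sg_add]
    have e2 : T (L β u (L β v (dl 0))) = sg (s (u + v)) • L β u (L β v (T (dl 0))) := by
      rw [L_L, map_smul, hs1, L_L, smul_smul, smul_smul, mul_comm]
    have hT0 : T (dl 0) ≠ 0 := by
      intro h
      have : (dl 0 : U → ZMod 3) = 0 := T.injective (by rw [h, map_zero])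
      have h' := congrFun this 0
      simp [dl] at h'
    have hinj : ∀ u (h : U → ZMod 3), L β u h = 0 → h = 0 := by
      intro u h hh
      have := L_L_self β u h
      rw [hh, map_zero] at this
      have h3 : sg (β u u) • (sg (β u u) • h) = 0 := by rw [← this, smul_zero]
      rwa [sg_smul_smul] at h3
    have hne : L β u (L β v (T (dl 0))) ≠ 0 := fun h => hT0 (hinj _ _ (hinj _ _ h))
    obtain ⟨x, hx⟩ : ∃ x, L β u (L β v (T (dl 0))) x ≠ 0 := by
      by_contra h; push Not at h; exact hne (funext h)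
    have e3 := congrFun (e1.symm.trans e2) x
    rw [Pi.smul_apply, Pi.smul_apply, smul_eq_mul, smul_eq_mul] at e3
    exact (sg_inj (mul_right_cancel₀ hx e3)).symm
  -- s is a functional
  have hs0 : s 0 = 0 := by
    have := hadd 0 0
    rw [add_zero] at this
    have h' : ∀ x : ZMod 2, x = x + x → x = 0 := by decide
    exact h' _ this
  let sl : U →ₗ[ZMod 2] ZMod 2 :=
    { toFun := s
      map_add' := hadd
      map_smul' := by
        intro c x
        have : c = 0 ∨ c = 1 := by revert c; decide
        rcases this with rfl | rfl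
        · simp [hs0]
        · simp }
  have : Module.Finite (ZMod 2) U := Module.Finite.of_finite
  have hnd' : (β + β.flip).Nondegenerate := by
    refine ⟨?_, ?_⟩
    · intro u hu
      apply hnd
      intro v
      have := hu v
      rwa [LinearMap.add_apply, LinearMap.add_apply, LinearMap.BilinForm.flip_apply] at this
    · intro u hu
      apply hnd
      intro v
      have := hu v
      rw [LinearMap.add_apply, LinearMap.add_apply, LinearMap.BilinForm.flip_apply] at this
      rwa [add_comm]
  obtain ⟨v, hv⟩ : ∃ v, (β + β.flip) v = sl := by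
    have := (LinearMap.BilinForm.toDual (β + β.flip) hnd').surjective sl
    obtain ⟨v, hv⟩ := this
    refine ⟨v, ?_⟩
    rw [← hv]
    ext w
    rw [LinearMap.BilinForm.toDual_def]
  have hv' : ∀ w, s w = β v w + β w v := by
    intro w
    have h := congrArg (fun l => l w) hv
    simp only [LinearMap.add_apply, LinearMap.BilinForm.flip_apply] at h
    exact h.symm
  -- L v T commutes with everything
  obtain ⟨c, hc⟩ := scalar_of_comm β hnd (L β v ∘ₗ (T : (U → ZMod 3) →ₗ[ZMod 3] (U → ZMod 3))) (by
    intro w h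
    simp only [LinearMap.comp_apply, LinearEquiv.coe_coe]
    rw [h1, L_R]) (by
    intro w h
    simp only [LinearMap.comp_apply, LinearEquiv.coe_coe]
    rw [hs1, map_smul, L_L, L_L, smul_smul, hv', ← sg_add]
    have e : β v w + β w v + β v w = β w v := by
      have h1 := CharTwo.add_self_eq_zero (β v w)
      linear_combination h1
    rw [e, add_comm v w])
  simp only [LinearMap.comp_apply, LinearEquiv.coe_coe] at hc
  have hTc : ∀ h, T h = (sg (β v v) * c) • L β v h := by
    intro h
    have h2 := congrArg (fun f => sg (β v v) • L β v f) (hc h)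
    rw [L_L_self, sg_smul_smul] at h2
    rw [h2, map_smul, smul_smul]
  have hcne : sg (β v v) * c ≠ 0 := by
    intro h0
    have h3 := hTc (dl 0)
    rw [h0, zero_smul] at h3
    have : (dl 0 : U → ZMod 3) = 0 := T.injective (by rw [h3, map_zero])
    have h' := congrFun this 0
    simp [dl] at h'
  obtain ⟨d, hd⟩ := exists_sg hcne
  refine ⟨v, d, ?_⟩
  intro h
  rw [← hd]; exact hTc h

theorem sgL_inj {u v : U} {c d : ZMod 2} (h : sg c • L β u (dl 0) = sg d • L β v (dl 0)) :
    u = v ∧ c = d := by
  rw [L_dl, L_dl] at h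
  simp only [map_zero, sg_zero, one_smul, add_zero] at h
  have h1 := congrFun h u
  simp only [Pi.smul_apply, dl, Pi.single_apply, smul_eq_mul, if_true, mul_one] at h1
  by_cases huv : u = v
  · subst huv
    simp only [if_true, mul_one] at h1
    exact ⟨rfl, sg_inj h1⟩
  · exfalso
    rw [if_neg huv, mul_zero] at h1
    exact sg_ne_zero _ h1

/-- `± L v` as an element of the group -/
theorem exists_elt (v : U) (c : ZMod 2) : ∃ p : ↥(GG β ρ), pr β ρ p = 1 ∧ ∀ h, p.1.2 h = sg c • L β v h := by
  have hb : Function.Injective (sg c • L β v) := by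
    rw [← LinearMap.ker_eq_bot, LinearMap.ker_eq_bot']
    intro h hh
    rw [LinearMap.smul_apply] at hh
    have h2 : sg c • (sg c • L β v h) = 0 := by rw [hh, smul_zero]
    rw [sg_smul_smul] at h2
    have := L_L_self β v h
    rw [h2, map_zero] at this
    have h3 : sg (β v v) • (sg (β v v) • h) = 0 := by rw [← this, smul_zero]
    rwa [sg_smul_smul] at h3
  let T := LinearEquiv.ofInjectiveEndo (sg c • L β v) hb
  have hT : ∀ h, T h = sg c • L β v h := fun h => rfl
  refine ⟨⟨(1, T), ?_, ?_⟩, rfl, hT⟩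
  · intro w h
    simp only [hT]
    rw [L_R, map_smul]
  · intro w
    refine ⟨β v w + β w v, ?_⟩
    intro h
    simp only [hT, map_one, map_smul]
    rw [L_L, Module.End.one_apply, L_L]
    simp only [smul_smul]
    rw [add_comm v w]
    congr 1
    have e : β v w = (β v w + β w v) + β w v := by
      have h1 := CharTwo.add_self_eq_zero (β w v)
      linear_combination (-1) * h1
    have e2 : sg (β v w) = sg (β v w + β w v) * sg (β w v) := by
      rw [← sg_add, ← e]
    rw [e2]; ring

end Cfsg.Agent.H281.Tw
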