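import Mathlib

set_option autoImplicit false

/-! # The twisted group algebra over `F₃` of a quadratic space over `F₂`

`β` a bilinear form on the finite `F₂`-space `U`, `q u = β u u`. `L β u`, `R β u` are the left and right
multiplications by the basis elements of the twisted group algebra (functions `U → F₃`). -/

namespace Cfsg.Agent.H281.Tw

/-- the sign `(-1)^x` in `F₃` -/
def sg (x : ZMod 2) : ZMod 3 := if x = 0 then 1 else -1

theorem sg_add (x y : ZMod 2) : sg (x + y) = sg x * sg y := by revert x y; decide
theorem sg_zero : sg 0 = 1 := rfl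
theorem sg_one : sg 1 = -1 := rfl
theorem sg_mul_self (x : ZMod 2) : sg x * sg x = 1 := by revert x; decide
theorem sg_ne_zero (x : ZMod 2) : sg x ≠ 0 := by revert x; decide
theorem sg_inj {x y : ZMod 2} (h : sg x = sg y) : x = y := by revert x y; decide
theorem exists_sg {c : ZMod 3} (h : c ≠ 0) : ∃ x, c = sg x := by revert c; decide

variable {U : Type*} [AddCommGroup U] [Module (ZMod 2) U]

theorem add_self (u : U) : u + u = 0 := by
  have h : (2 : ZMod 2) • u = 0 := by
    have : (2 : ZMod 2) = 0 := rfl
    rw [this, zero_smul]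
  rwa [two_smul] at h

theorem add_add_self (x u : U) : x + u + u = x := by rw [add_assoc, add_self, add_zero]

theorem eq_of_add_eq_zero {u v : U} (h : u + v = 0) : u = v := by
  have : u + v + v = v := by rw [h, zero_add]
  rwa [add_add_self] at this

variable (β : LinearMap.BilinForm (ZMod 2) U)

/-- left multiplication by the basis element `u` -/
def L (u : U) : (U → ZMod 3) →ₗ[ZMod 3] (U → ZMod 3) where
  toFun f := fun x => sg (β u (x + u)) * f (x + u)
  map_add' f g := by ext x; simp [mul_add]
  map_smul' c f := by ext x; simp [mul_left_comm]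

/-- right multiplication by the basis element `u` -/
def R (u : U) : (U → ZMod 3) →ₗ[ZMod 3] (U → ZMod 3) where
  toFun f := fun x => sg (β (x + u) u) * f (x + u)
  map_add' f g := by ext x; simp [mul_add]
  map_smul' c f := by ext x; simp [mul_left_comm]

theorem L_apply (u : U) (f : U → ZMod 3) (x : U) : L β u f x = sg (β u (x + u)) * f (x + u) := rfl
theorem R_apply (u : U) (f : U → ZMod 3) (x : U) : R β u f x = sg (β (x + u) u) * f (x + u) := rfl

theorem L_L (u v : U) (f : U → ZMod 3) : L β u (L β v f) = sg (β u v) • L β (u + v) f := by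
  ext x
  rw [L_apply, L_apply, Pi.smul_apply, L_apply, smul_eq_mul]
  have e : x + u + v = x + (u + v) := by abel
  rw [e, ← mul_assoc, ← mul_assoc, ← sg_add, ← sg_add]
  congr 2
  simp only [map_add, LinearMap.add_apply]
  have h1 := CharTwo.add_self_eq_zero (β u v)
  linear_combination (-1) * h1

theorem R_R (u v : U) (f : U → ZMod 3) : R β u (R β v f) = sg (β v u) • R β (u + v) f := by
  ext x
  rw [R_apply, R_apply, Pi.smul_apply, R_apply, smul_eq_mul]
  have e : x + u + v = x + (u + v) := by abel
  rw [e, ← mul_assoc, ← mul_assoc, ← sg_add, ← sg_add]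
  congr 2
  simp only [map_add, LinearMap.add_apply]
  have h1 := CharTwo.add_self_eq_zero (β v u)
  linear_combination (-1) * h1

theorem L_R (u v : U) (f : U → ZMod 3) : L β u (R β v f) = R β v (L β u f) := by
  ext x
  rw [L_apply, R_apply, R_apply, L_apply]
  have e : x + u + v = x + v + u := by abel
  rw [e, ← mul_assoc, ← mul_assoc, ← sg_add, ← sg_add]
  congr 2
  simp only [map_add, LinearMap.add_apply]
  ring

theorem L_zero (f : U → ZMod 3) : L β 0 f = f := by
  ext x
  rw [L_apply]
  simp [sg_zero]

theorem L_L_self (u : U) (f : U → ZMod 3) : L β u (L β u f) = sg (β u u) • f := by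
  rw [L_L, add_self, L_zero]

/-- the diagonal operators -/
theorem L_R_self (v : U) (f : U → ZMod 3) (x : U) :
    L β v (R β v f) x = sg (β v v) * sg (β v x + β x v) * f x := by
  rw [L_apply, R_apply, add_add_self, ← mul_assoc, ← sg_add, ← sg_add]
  congr 2
  simp only [map_add]
  ring

variable [Fintype U] [DecidableEq U]

/-- orthogonality of characters -/
theorem sum_sg (hnd : ∀ u, (∀ v, β u v + β v u = 0) → u = 0) (x : U) :
    ∑ v : U, sg (β v x + β x v) = if x = 0 then (Fintype.card U : ZMod 3) else 0 := by
  split_ifs with h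
  · subst h; simp [sg_zero]
  · have h1 : ¬ ∀ v, β x v + β v x = 0 := fun h' => h (hnd x h')
    push Not at h1
    obtain ⟨w, hw⟩ := h1
    have hw1 : β w x + β x w = 1 := by
      have : ∀ a : ZMod 2, a ≠ 0 → a = 1 := by decide
      rw [add_comm]; exact this _ hw
    have key : ∑ v : U, sg (β v x + β x v) = ∑ v : U, sg (β (v + w) x + β x (v + w)) :=
      (Equiv.sum_comp (Equiv.addRight w) (fun v => sg (β v x + β x v))).symm
    have key2 : ∀ v, sg (β (v + w) x + β x (v + w)) = - sg (β v x + β x v) := by
      intro v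
      have : β (v + w) x + β x (v + w) = (β v x + β x v) + 1 := by
        rw [← hw1]; simp only [map_add, LinearMap.add_apply]; ring
      rw [this, sg_add, sg_one]; ring
    simp only [key2, Finset.sum_neg_distrib] at key
    have : ∀ a : ZMod 3, a = -a → a = 0 := by decide
    exact this _ key

theorem card_ne_zero : (Fintype.card U : ZMod 3) ≠ 0 := by
  have h : ∃ m, Fintype.card U = 2 ^ m := by
    have : Module.Finite (ZMod 2) U := Module.Finite.of_finite
    refine ⟨Module.finrank (ZMod 2) U, ?_⟩
    have := Module.card_eq_pow_finrank (K := ZMod 2) (V := U)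
    simpa using this
  obtain ⟨m, hm⟩ := h
  rw [hm]
  push_cast
  exact pow_ne_zero _ (by decide)

/-- the basis vectors -/
def dl (u : U) : U → ZMod 3 := Pi.single u 1

theorem L_dl (u v : U) : L β u (dl v) = sg (β u v) • dl (u + v) := by
  ext x
  rw [L_apply, Pi.smul_apply, smul_eq_mul, dl, dl]
  by_cases h : x = u + v
  · subst h
    have : u + v + u = v := by rw [add_comm, ← add_assoc, add_self, zero_add]
    simp [this]
  · have h' : x + u ≠ v := by
      intro h'; apply h; rw [← h', add_comm, add_assoc, add_self, add_zero]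
    simp [Pi.single_apply, h, h']

theorem R_dl (u v : U) : R β u (dl v) = sg (β v u) • dl (u + v) := by
  ext x
  rw [R_apply, Pi.smul_apply, smul_eq_mul, dl, dl]
  by_cases h : x = u + v
  · subst h
    have : u + v + u = v := by rw [add_comm, ← add_assoc, add_self, zero_add]
    simp [this]
  · have h' : x + u ≠ v := by
      intro h'; apply h; rw [← h', add_comm, add_assoc, add_self, add_zero]
    simp [Pi.single_apply, h, h']

/-- an operator commuting with all left and right multiplications is a scalar -/
theorem scalar_of_comm (hnd : ∀ u, (∀ v, β u v + β v u = 0) → u = 0)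
    (T : (U → ZMod 3) →ₗ[ZMod 3] (U → ZMod 3)) (hR : ∀ v f, T (R β v f) = R β v (T f))
    (hL : ∀ v f, T (L β v f) = L β v (T f)) : ∃ c : ZMod 3, ∀ f, T f = c • f := by
  set t := T (dl 0) with ht
  have h1 : ∀ v, T (dl v) = R β v t := by
    intro v
    rw [ht, ← hR, R_dl]; simp [sg_zero]
  have h2 : ∀ v, T (dl v) = L β v t := by
    intro v
    rw [ht, ← hL, L_dl]; simp [sg_zero]
  have h3 : ∀ y, y ≠ 0 → t y = 0 := by
    intro y hy
    by_contra hty
    apply hy
    apply hnd
    intro v
    have := congrFun ((h1 v).symm.trans (h2 v)) (y + v)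
    rw [R_apply, L_apply, add_add_self] at this
    have h4 := mul_right_cancel₀ hty this
    have h5 := sg_inj h4
    rw [h5]
    exact CharTwo.add_self_eq_zero _
  have h4 : t = t 0 • dl 0 := by
    ext y
    by_cases hy : y = 0
    · subst hy; simp [dl]
    · rw [h3 y hy]; simp [dl, Pi.single_apply, hy]
  refine ⟨t 0, ?_⟩
  intro f
  have hf : f = ∑ v, f v • dl v := by
    ext y
    simp [dl, Finset.sum_apply, Pi.single_apply]
  have h5 : ∀ v, T (dl v) = t 0 • dl v := by
    intro v
    rw [h1, h4, map_smul, R_dl]
    simp [sg_zero, dl]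
  conv_lhs => rw [hf]
  rw [map_sum]
  simp only [map_smul, h5]
  conv_rhs => rw [hf]
  rw [Finset.smul_sum]
  refine Finset.sum_congr rfl ?_
  intro v _
  rw [smul_comm]

/-- irreducibility: an operator whose kernel is invariant under all left and right multiplications is
zero or injective -/
theorem injective_of_invariant (hnd : ∀ u, (∀ v, β u v + β v u = 0) → u = 0)
    (N : Submodule (ZMod 3) (U → ZMod 3)) (hR : ∀ v, ∀ f ∈ N, R β v f ∈ N)
    (hL : ∀ v, ∀ f ∈ N, L β v f ∈ N) (hN : N ≠ ⊥) : N = ⊤ := by
  obtain ⟨f, hfN, hf0⟩ := (Submodule.ne_bot_iff N).1 hN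
  obtain ⟨y, hy⟩ : ∃ y, f y ≠ 0 := by
    by_contra h
    push Not at h
    exact hf0 (funext h)
  -- projection
  have h1 : (∑ v : U, (sg (β v y + β y v) * sg (β v v)) • L β v (R β v f)) ∈ N :=
    Submodule.sum_mem _ fun v _ => Submodule.smul_mem _ _ (hL v _ (hR v _ hfN))
  have h2 : (∑ v : U, (sg (β v y + β y v) * sg (β v v)) • L β v (R β v f)) =
      ((Fintype.card U : ZMod 3) * f y) • dl y := by
    ext x
    rw [Finset.sum_apply]
    simp only [Pi.smul_apply, L_R_self, smul_eq_mul]
    have h3 : ∀ v, sg (β v y + β y v) * sg (β v v) * (sg (β v v) * sg (β v x + β x v) * f x) =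
        sg (β v (x + y) + β (x + y) v) * f x := by
      intro v
      have h4 : sg (β v y + β y v) * sg (β v v) * (sg (β v v) * sg (β v x + β x v) * f x) =
        (sg (β v v) * sg (β v v)) * (sg (β v y + β y v) * sg (β v x + β x v)) * f x := by ring
      rw [h4, sg_mul_self, one_mul, ← sg_add]
      congr 2
      simp only [map_add, LinearMap.add_apply]; ring
    simp only [h3]
    rw [← Finset.sum_mul, sum_sg β hnd]
    by_cases hxy : x = y
    · subst hxy; simp [add_self, dl]
    · have : x + y ≠ 0 := fun h => hxy (eq_of_add_eq_zero h)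
      simp [this, dl, Pi.single_apply, hxy]
  have h3 : dl y ∈ N := by
    rw [h2] at h1
    have hc : ((Fintype.card U : ZMod 3) * f y) ≠ 0 := mul_ne_zero card_ne_zero hy
    have := N.smul_mem ((Fintype.card U : ZMod 3) * f y)⁻¹ h1
    rwa [smul_smul, inv_mul_cancel₀ hc, one_smul] at this
  have h4 : ∀ v, dl v ∈ N := by
    intro v
    have h5 := hL (v + y) _ h3
    rw [L_dl, add_add_self] at h5
    have := N.smul_mem (sg (β (v + y) y)) h5
    rwa [smul_smul, sg_mul_self, one_smul] at this
  rw [eq_top_iff]
  intro g _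
  have hg : g = ∑ v, g v • dl v := by
    ext y
    simp [dl, Finset.sum_apply, Pi.single_apply]
  rw [hg]
  exact Submodule.sum_mem _ fun v _ => N.smul_mem _ (h4 v)

end Cfsg.Agent.H281.Tw
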